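-- Team project SUG (S2412), case [GEN]: leaf [GCOMM3] (helper41).
import Cfsg.Agent.Lib.Helper60.SUG.GenDefs

set_option autoImplicit false

namespace Cfsg.Agent.Lib.Helper41.SUG

open Matrix Cfsg.Agent.Lib.Helper60.SUG

universe u

section basics

variable {F : Type u} [Field F] {q n : ℕ}

theorem mat_mul' (a b : ↥(Cfsg.SU n F q)) : mat (a * b) = mat a * mat b := by
  simp [mat]

theorem mat_inv_mul' (c : ↥(Cfsg.SU n F q)) : mat c⁻¹ * mat c = 1 := by
  rw [← mat_mul', inv_mul_cancel]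
  simp [mat]

theorem mat_mul_inv' (c : ↥(Cfsg.SU n F q)) : mat c * mat c⁻¹ = 1 := by
  rw [← mat_mul', mul_inv_cancel]
  simp [mat]

theorem su_ext' (A B : ↥(Cfsg.SU n F q)) (h : mat A = mat B) : A = B :=
  Subtype.ext (Subtype.ext h)

/-- the cyclic shift at a coordinate `≥ 1`. -/
theorem cyc_succ (c : ↥(Cfsg.SU n F q)) (hc : IsCyc c) (v : Fin n → F) (j : Fin n)
    (hj : 1 ≤ (j : ℕ)) :
    (mat c *ᵥ v) j = v ⟨(j : ℕ) - 1, lt_of_le_of_lt (Nat.sub_le _ _) j.isLt⟩ :=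
  hc.1 v ⟨(j : ℕ) - 1, lt_of_le_of_lt (Nat.sub_le _ _) j.isLt⟩ j
    (by simp only; omega)

/-- the cyclic shift at the coordinate `0`. -/
theorem cyc_zero (c : ↥(Cfsg.SU n F q)) (hc : IsCyc c) (v : Fin n → F) (j : Fin n)
    (hj : (j : ℕ) = 0) :
    (mat c *ᵥ v) j = (-1) ^ (n + 1) *
      v ⟨n - 1, Nat.sub_lt (lt_of_le_of_lt (Nat.zero_le _) j.isLt) Nat.one_pos⟩ :=
  hc.2 v ⟨n - 1, Nat.sub_lt (lt_of_le_of_lt (Nat.zero_le _) j.isLt) Nat.one_pos⟩ j hj
    (by have := j.isLt; simp only; omega)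

/-- The diagonal `(α⁻¹, α⁻¹, 1, …, 1, α, α)`. -/
def eV (n : ℕ) (α : F) : Fin n → F :=
  fun i => if (i : ℕ) < 2 then α⁻¹ else if n ≤ (i : ℕ) + 2 then α else 1

/-- `d c² = c² e`. -/
theorem diag_cyc2 (hn : 4 ≤ n) (α : F) (c d : ↥(Cfsg.SU n F q)) (hc : IsCyc c)
    (hd : mat d = Matrix.diagonal (dV n α)) :
    mat d * (mat c * mat c) = (mat c * mat c) * Matrix.diagonal (eV n α) := by
  rw [Matrix.ext_iff_mulVec]
  intro v
  rw [← Matrix.mulVec_mulVec, ← Matrix.mulVec_mulVec, ← Matrix.mulVec_mulVec,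
    ← Matrix.mulVec_mulVec, hd]
  funext j
  rw [Matrix.mulVec_diagonal]
  have hjn := j.isLt
  by_cases h0 : (j : ℕ) = 0
  · rw [cyc_zero c hc _ j h0, cyc_zero c hc _ j h0,
      cyc_succ c hc _ _ (by simp only; omega), cyc_succ c hc _ _ (by simp only; omega),
      Matrix.mulVec_diagonal]
    have h1 : dV n α j = α := by simp [dV, h0]
    have h2 : eV n α ⟨n - 1 - 1, by omega⟩ = α := by
      have h3 : ¬ (n - 1 - 1 < 2) := by omega
      have h4 : n ≤ n - 1 - 1 + 2 := by omega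
      simp [eV, h3, h4]
    rw [h1, h2]
    ring
  · by_cases h1 : (j : ℕ) = 1
    · rw [cyc_succ c hc _ j (by omega), cyc_succ c hc _ j (by omega),
        cyc_zero c hc _ _ (by simp only; omega), cyc_zero c hc _ _ (by simp only; omega),
        Matrix.mulVec_diagonal]
      have h2 : dV n α j = α := by simp [dV, h1]
      have h3 : eV n α ⟨n - 1, by omega⟩ = α := by
        have h4 : ¬ (n - 1 < 2) := by omega
        have h5 : n ≤ n - 1 + 2 := by omega
        simp [eV, h4, h5]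
      rw [h2, h3]
      ring
    · rw [cyc_succ c hc _ j (by omega), cyc_succ c hc _ j (by omega),
        cyc_succ c hc _ _ (by simp only; omega), cyc_succ c hc _ _ (by simp only; omega),
        Matrix.mulVec_diagonal]
      congr 1
      by_cases h4 : (j : ℕ) < 4
      · have h5 : ¬ ((j : ℕ) < 2) := by omega
        have h6 : (j : ℕ) - 1 - 1 < 2 := by omega
        simp [dV, eV, h4, h5, h6]
      · have h5 : ¬ ((j : ℕ) < 2) := by omega
        have h6 : ¬ ((j : ℕ) - 1 - 1 < 2) := by omega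
        have h7 : ¬ (n ≤ (j : ℕ) - 1 - 1 + 2) := by omega
        simp [dV, eV, h4, h5, h6, h7]

/-- the torus element commutes with `diag(α⁻¹, α⁻¹, 1, …, 1, α, α)`. -/
theorem tor_comm_diag (hn : 4 ≤ n) (lam μ α : F) (t : ↥(Cfsg.SU n F q)) (ht : IsTor t lam μ) :
    mat t * Matrix.diagonal (eV n α) = Matrix.diagonal (eV n α) * mat t := by
  obtain ⟨-, ht2, ht3, -⟩ := ht
  rw [Matrix.ext_iff_mulVec]
  intro v
  rw [← Matrix.mulVec_mulVec, ← Matrix.mulVec_mulVec]
  set v1 : Fin n → F := fun i => if (i : ℕ) < 2 then v i else 0 with hv1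
  set v2 : Fin n → F := fun i => if (i : ℕ) < 2 then 0 else v i with hv2
  have hv : v = v1 + v2 := by
    funext i
    by_cases h : (i : ℕ) < 2
    · simp only [hv1, hv2, Pi.add_apply, if_pos h, add_zero]
    · simp only [hv1, hv2, Pi.add_apply, if_neg h, zero_add]
  have hs1 : Supp 2 v1 := by
    intro i hi
    have h : ¬ ((i : ℕ) < 2) := by omega
    simp only [hv1, if_neg h]
  have hE2 : ∀ x : Fin n → F, Supp 2 x → Matrix.diagonal (eV n α) *ᵥ x = α⁻¹ • x := by
    intro x hx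
    funext i
    rw [Matrix.mulVec_diagonal]
    by_cases h : (i : ℕ) < 2
    · simp only [eV, if_pos h, Pi.smul_apply, smul_eq_mul]
    · simp only [Pi.smul_apply, smul_eq_mul, hx i (by omega), mul_zero]
  have hE0 : ∀ i : Fin n, (i : ℕ) < 2 → (Matrix.diagonal (eV n α) *ᵥ v2) i = 0 := by
    intro i hi
    rw [Matrix.mulVec_diagonal]
    simp only [hv2, if_pos hi, mul_zero]
  have h1 : mat t *ᵥ v2 = v2 := ht3 v2 (by
    intro i hi
    simp only [hv2, if_pos hi])
  have h2 : mat t *ᵥ (Matrix.diagonal (eV n α) *ᵥ v2) = Matrix.diagonal (eV n α) *ᵥ v2 :=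
    ht3 _ hE0
  rw [hv, Matrix.mulVec_add, Matrix.mulVec_add, Matrix.mulVec_add, Matrix.mulVec_add, h1, h2,
    hE2 v1 hs1, hE2 _ (ht2 v1 hs1), Matrix.mulVec_smul]

end basics

/-- [GCOMM3] -/
theorem pkgGComm3 : PkgGComm3.{u} := by
  intro F _ _ q _ n hn lam μ α c t d _ hc ht hd
  apply su_ext'
  simp only [mat_mul']
  have h1 := diag_cyc2 hn α c d hc hd
  have h2 := tor_comm_diag (q := q) hn lam μ α t ht
  have h3 := mat_inv_mul' c
  have h4 := mat_mul_inv' c
  -- `c⁻¹ c⁻¹ d = e c⁻¹ c⁻¹`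
  have h5 : mat c⁻¹ * mat c⁻¹ * mat d = Matrix.diagonal (eV n α) * (mat c⁻¹ * mat c⁻¹) := by
    calc mat c⁻¹ * mat c⁻¹ * mat d
        = mat c⁻¹ * mat c⁻¹ * (mat d * (mat c * mat c)) * (mat c⁻¹ * mat c⁻¹) := by
          have : mat c * mat c * (mat c⁻¹ * mat c⁻¹) = 1 := by
            calc mat c * mat c * (mat c⁻¹ * mat c⁻¹)
                = mat c * (mat c * mat c⁻¹) * mat c⁻¹ := by simp only [Matrix.mul_assoc]
              _ = 1 := by rw [h4, Matrix.mul_one, h4]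
          rw [Matrix.mul_assoc (mat c⁻¹ * mat c⁻¹) (mat d * (mat c * mat c)),
            Matrix.mul_assoc (mat d), this, Matrix.mul_one]
      _ = mat c⁻¹ * mat c⁻¹ * ((mat c * mat c) * Matrix.diagonal (eV n α)) *
            (mat c⁻¹ * mat c⁻¹) := by rw [h1]
      _ = Matrix.diagonal (eV n α) * (mat c⁻¹ * mat c⁻¹) := by
          have : mat c⁻¹ * mat c⁻¹ * (mat c * mat c) = 1 := by
            calc mat c⁻¹ * mat c⁻¹ * (mat c * mat c)
                = mat c⁻¹ * (mat c⁻¹ * mat c) * mat c := by simp only [Matrix.mul_assoc]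
              _ = 1 := by rw [h3, Matrix.mul_one, h3]
          rw [← Matrix.mul_assoc (mat c⁻¹ * mat c⁻¹) (mat c * mat c), this, Matrix.one_mul]
  calc mat c * mat c * mat t * mat c⁻¹ * mat c⁻¹ * mat d
      = mat c * mat c * mat t * (mat c⁻¹ * mat c⁻¹ * mat d) := by simp only [Matrix.mul_assoc]
    _ = mat c * mat c * (mat t * Matrix.diagonal (eV n α)) * (mat c⁻¹ * mat c⁻¹) := by
        rw [h5]; simp only [Matrix.mul_assoc]
    _ = (mat c * mat c * Matrix.diagonal (eV n α)) * mat t * (mat c⁻¹ * mat c⁻¹) := by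
        rw [h2]; simp only [Matrix.mul_assoc]
    _ = mat d * (mat c * mat c * mat t * mat c⁻¹ * mat c⁻¹) := by
        rw [← h1]; simp only [Matrix.mul_assoc]

end Cfsg.Agent.Lib.Helper41.SUG
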