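-- Team project SUG (S2412), case [GEN]: leaf [GCOMM1] (helper41).
import Cfsg.Agent.Lib.Helper41.SUG.GComm3
import Cfsg.Agent.Lib.Helper13.UTransvComm

set_option autoImplicit false

namespace Cfsg.Agent.Lib.Helper41.SUG

open Matrix Cfsg.Agent.Lib.Helper60.SUG Cfsg.Agent.Lib.Helper45

universe u

/-- `c² t c⁻²` fixes `vA`. -/
theorem conj_tor_fix {F : Type u} [Field F] {q n : ℕ} (hn : 4 ≤ n) (lam μ : F)
    (c t : ↥(Cfsg.SU n F q)) (hc : IsCyc c) (ht : IsTor t lam μ) :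
    mat (c * c * t * c⁻¹ * c⁻¹) *ᵥ vA n lam = vA n lam := by
  obtain ⟨-, -, ht3, -⟩ := ht
  simp only [mat_mul']
  set w : Fin n → F := mat c⁻¹ *ᵥ (mat c⁻¹ *ᵥ vA n lam) with hw
  have h4 := mat_mul_inv' c
  have hcw : mat c *ᵥ (mat c *ᵥ w) = vA n lam := by
    rw [hw, Matrix.mulVec_mulVec, Matrix.mulVec_mulVec, Matrix.mulVec_mulVec,
      Matrix.mul_assoc (mat c) (mat c), h4, Matrix.mul_one, h4,
      Matrix.one_mulVec]
  have hw0 : ∀ i : Fin n, (i : ℕ) < 2 → w i = 0 := by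
    intro i hi
    have h1 := congrFun hcw ⟨(i : ℕ) + 2, by omega⟩
    rw [cyc_succ c hc _ _ (by simp only; omega), cyc_succ c hc _ _ (by simp only; omega)] at h1
    have h3 : w i = vA n lam ⟨(i : ℕ) + 2, by omega⟩ := by
      rw [← h1]
      congr 1
    rw [h3]
    have h5 : ¬ ((i : ℕ) + 2 = 0) := by omega
    have h6 : ¬ ((i : ℕ) + 2 = 1) := by omega
    simp only [vA, if_neg h5, if_neg h6]
  have htw : mat t *ᵥ w = w := ht3 w hw0
  calc (mat c * mat c * mat t * mat c⁻¹ * mat c⁻¹) *ᵥ vA n lam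
      = mat c *ᵥ (mat c *ᵥ (mat t *ᵥ w)) := by
        rw [hw]
        simp only [Matrix.mulVec_mulVec, Matrix.mul_assoc]
    _ = vA n lam := by rw [htw, hcw]

/-- [GCOMM1] -/
theorem pkgGComm1 : PkgGComm1.{u} := by
  intro F _ _ q _ n hn lam μ c₀ c g₀ t _ _ hc hg₀ ht
  apply su_ext'
  rw [mat_mul' g₀, mat_mul' _ g₀, hg₀]
  have hS : IsHermIso n F q (mat (c * c * t * c⁻¹ * c⁻¹)) := (c * c * t * c⁻¹ * c⁻¹).2
  have h1 := Cfsg.Agent.Lib.Helper13.utransv_conj hS (vA n lam) c₀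
  rw [conj_tor_fix hn lam μ c t hc ht] at h1
  exact h1.symm

end Cfsg.Agent.Lib.Helper41.SUG
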